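import Cfsg.Agent.Lib.Schur.Asm
import Cfsg.Agent.Lib.CosetEnum.Pres
import Cfsg.Agent.Lib.Mdl.Tools

/-! A covering group of a simple group presented on involutions, from elements satisfying the relators up to a central
element of odd order. -/

set_option autoImplicit false

namespace H60

open H54 H18.TC Cfsg

theorem eq_one_of_sq_of_odd {M : Type*} [Monoid M] {x : M} {k : ℕ} (hk : Odd k) (h2 : x * x = 1) (h : x ^ k = 1) :
    x = 1 := by
  obtain ⟨j, rfl⟩ := hk
  rwa [pow_succ, pow_mul, pow_two, h2, one_pow, one_mul] at h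

theorem lowB_of_pres {Q E : Type} [Group Q] [Group E] [IsSimpleGroup Q] {s : ℕ → Q} {nc : ℕ} {Rs : List (List ℕ)}
    (ex : ∀ {G : Type} [Group G] {g : ℕ → G}, Sat g nc Rs → ∃ φ : Q →* G, ∀ x, x < nc → φ (s x) = g x)
    {g : ℕ → E} (top : gsub g (List.range nc) = ⊤) (h2 : ∀ x, g x * g x = 1) (h1 : g nc = 1) {w : E} {k : ℕ}
    (hk : Odd k) (hk1 : k ≠ 1) (ho : orderOf w = k) (hc : ∀ x, x < nc → Commute (g x) w)
    (hR : ∀ R ∈ Rs, ev g R ∈ Subgroup.zpowers w) : LowB Q k := by
  have hw : w ∈ Subgroup.center E := Subgroup.mem_center_iff.2 fun y =>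
    Subgroup.mem_centralizer_singleton_iff.1 ((top ▸ gsub_le fun x hx =>
      Subgroup.mem_centralizer_singleton_iff.2 (hc x (List.mem_range.1 hx)).eq :
        (⊤ : Subgroup E) ≤ Subgroup.centralizer {w}) (Subgroup.mem_top y))
  have hZ : Subgroup.zpowers w ≤ Subgroup.center E := Subgroup.zpowers_le.2 hw
  have : (Subgroup.zpowers w).Normal := ⟨fun a ha y => by
    rwa [Subgroup.mem_center_iff.1 (hZ ha) y, mul_inv_cancel_right]⟩
  let π := QuotientGroup.mk' (Subgroup.zpowers w)
  obtain ⟨φ, hφ⟩ := ex (g := fun x => π (g x)) ⟨fun x => eq_inv_of_mul_eq_one_left (by rw [← map_mul, h2, map_one]),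
    by simp only [h1, map_one], fun R h => by rw [← map_ev]; exact (QuotientGroup.eq_one_iff _).2 (hR R h)⟩
  have hs : Function.Surjective φ := by
    intro y
    obtain ⟨y, rfl⟩ := QuotientGroup.mk'_surjective _ y
    exact (top ▸ gsub_le fun x hx => ⟨s x, hφ x (List.mem_range.1 hx)⟩ : (⊤ : Subgroup E) ≤ φ.range.comap π)
      (Subgroup.mem_top y)
  have hi : Function.Injective φ := by
    rw [← MonoidHom.ker_eq_bot_iff]
    refine (MonoidHom.normal_ker φ).eq_bot_or_eq_top.resolve_right fun h => hk1 ?_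
    have : (⊤ : Subgroup E) ≤ ⊥ := top ▸ gsub_le fun x hx => by
      have h3 : π (g x) = 1 := (hφ x (List.mem_range.1 hx)).symm.trans (show s x ∈ φ.ker from h ▸ trivial)
      obtain ⟨j, hj⟩ := (QuotientGroup.eq_one_iff _).1 h3
      refine eq_one_of_sq_of_odd hk (h2 x) ?_
      rw [← hj, ← ho, ← zpow_natCast, ← zpow_mul, mul_comm, zpow_mul, zpow_natCast, pow_orderOf_eq_one, one_zpow]
    rw [← ho, Subgroup.mem_bot.1 (this (Subgroup.mem_top w)), orderOf_one]
  let e := MulEquiv.ofBijective φ ⟨hi, hs⟩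
  have hker : (e.symm.toMonoidHom.comp π).ker = Subgroup.zpowers w := by
    ext y
    simp only [MonoidHom.mem_ker, MonoidHom.comp_apply, MulEquiv.coe_toMonoidHom, EmbeddingLike.map_eq_one_iff]
    exact QuotientGroup.eq_one_iff _
  refine lowB_of_elt (e.symm.toMonoidHom.comp π) (e.symm.surjective.comp (QuotientGroup.mk'_surjective _))
    (hker.trans_le hZ) (hker.ge (Subgroup.mem_zpowers w)) ?_ ho
  rw [← Abelianization.ker_of, MonoidHom.mem_ker]
  refine eq_one_of_sq_of_odd hk ?_ (by rw [← map_pow, ← ho, pow_orderOf_eq_one, map_one])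
  have : (⊤ : Subgroup E) ≤ ((powMonoidHom 2).comp Abelianization.of).ker := top ▸ gsub_le fun x _ => by
    rw [MonoidHom.mem_ker, MonoidHom.comp_apply, powMonoidHom_apply, pow_two, ← map_mul, h2, map_one]
  exact (pow_two _).symm.trans (this (Subgroup.mem_top w))

open H15.Mdl

/-- the code of `ev g w` -/
noncomputable def evC (o : Ops) (C : List ℕ) (w : List ℕ) : ℕ :=
  List.rec (motive := fun _ => ℕ) o.one (fun x _ ih => force ih fun a => force (nth C x) (o.mul a)) w

noncomputable def covOk (o : Ops) (C : List ℕ) (nc : ℕ) (Rs : List (List ℕ)) (R0 : List ℕ) (k : ℕ) : Bool :=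
  force (evC o C R0) fun w => band (allLt (fun x => force (nth C x) fun c => band (o.isOne (o.mul c c)) (o.comm c w)) nc)
    (band (Nat.beq (o.ord (Nat.succ k) w) k) (band (ltAll nc R0)
      (allL (fun R => bor (leq R R0) (band (ltAll nc R) (o.isOne (evC o C R)))) Rs)))

theorem evC_spec {M : Type*} [Group M] {o : Ops} {R : M → ℕ → Prop} (hs : Sound o R) {C : List ℕ} {nc : ℕ} {m : ℕ → M}
    (hm : ∀ x, x < nc → R (m x) (nth C x)) : ∀ w : List ℕ, (∀ x ∈ w, x < nc) → R (ev m w) (evC o C w)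
  | [], _ => hs.one
  | x :: w, h => by
    rw [ev_cons]
    exact hs.mul (evC_spec hs hm w fun y hy => h y (List.mem_cons_of_mem _ hy)) (hm x (h x List.mem_cons_self))

theorem lowB_of_codes {Q M : Type} [Group Q] [Monoid M] [IsSimpleGroup Q] {s : ℕ → Q} {nc : ℕ} {Rs : List (List ℕ)}
    (ex : ∀ {G : Type} [Group G] {g : ℕ → G}, Sat g nc Rs → ∃ φ : Q →* G, ∀ x, x < nc → φ (s x) = g x)
    {o : Ops} {R : M → ℕ → Prop} (hs : Sound o R) {C : List ℕ} (hC : ∀ x, x < nc → ∃ a, R a (nth C x)) {R0 : List ℕ}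
    {k : ℕ} (hk : Odd k) (hk1 : k ≠ 1) (h : covOk o C nc Rs R0 k = true) : LowB Q k := by
  simp only [covOk, force_eq, band_eq_true, bor_eq_true, allLt_iff, allL_iff, Nat.beq_eq] at h
  obtain ⟨a1, a2, a3, a4⟩ := h
  have hu := hs.units
  have e : ∀ x, ∃ u : Mˣ, (x < nc → R u (nth C x)) ∧ u * u = 1 ∧ (¬ x < nc → u = 1) := fun x => by
    by_cases hx : x < nc
    · obtain ⟨a, r⟩ := hC x hx
      have := (hs.isOne_iff (hs.mul r r)).1 (a1 x hx).1
      exact ⟨⟨a, a, this, this⟩, fun _ => r, Units.ext this, fun h => absurd hx h⟩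
    · exact ⟨1, fun h => absurd h hx, mul_one _, fun _ => rfl⟩
  choose m hm h2 h1 using e
  have hE : ∀ x, m x ∈ gsub m (List.range nc) := fun x => by
    by_cases hx : x < nc
    · exact mem_gsub m (List.mem_range.2 hx)
    · rw [h1 x hx]; exact Subgroup.one_mem _
  let g : ℕ → gsub m (List.range nc) := fun x => ⟨m x, hE x⟩
  have hv : ∀ w, (ev g w).1 = ev m w := fun w => map_ev (Subgroup.subtype _) g w
  have r0 := evC_spec hu hm R0 (ltAll_spec a3)
  refine lowB_of_pres ex (g := g) (w := ev g R0) ?_ (fun x => Subtype.ext (h2 x))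
    (Subtype.ext (h1 nc (lt_irrefl _))) hk hk1 ?_ (fun x hx => ?_) fun R' hR => ?_
  · apply Subgroup.map_injective (Subgroup.subtype_injective _)
    rw [← MonoidHom.range_eq_map, Subgroup.range_subtype]
    exact (MonoidHom.map_closure _ _).trans (congrArg _ (Set.image_image _ _ _))
  · rw [← Subgroup.orderOf_coe, hv]
    exact hu.orderOf_eq r0 a2 hk.pos.ne'
  · exact Subtype.ext (by
      have := (hu.comm_iff (hm x hx) r0).1 (a1 x hx).2
      rw [← hv] at this
      exact this)
  · rcases a4 R' hR with c | c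
    · rw [leq_spec _ _ c]; exact Subgroup.mem_zpowers _
    · have := (hu.isOne_iff (evC_spec hu hm R' (ltAll_spec c.1))).1 c.2
      rw [show ev g R' = 1 from Subtype.ext ((hv _).trans this)]
      exact Subgroup.one_mem _

theorem exists_mat {n p : ℕ} (h : p < 2 ^ (n * n)) : ∃ A, R2 (matRho n) (stdB n) n A p :=
  ⟨Matrix.of fun i k => if (dig n p k).testBit i then 1 else 0, R2_mat h fun _ _ => rfl⟩

end H60
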