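import Mathlib
import Cfsg.Agent.Lib.Schur.Metacyclic
import Cfsg.Agent.Lib.Schur.Proj

/-! The Schur multiplier of a direct product. -/

set_option autoImplicit false

namespace H78.Schur

open Cfsg TensorProduct
open scoped commutatorElement

universe u v w

/-- `Q₁ᵃᵇ ⊗ Q₂ᵃᵇ`, written multiplicatively. -/
abbrev abTensor (Q₁ : Type u) (Q₂ : Type v) [Group Q₁] [Group Q₂] : Type (max u v) :=
  Multiplicative (TensorProduct ℤ (Additive (Abelianization Q₁)) (Additive (Abelianization Q₂)))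

section
variable {Q₁ : Type u} {Q₂ : Type v} [Group Q₁] [Group Q₂]

/-- the universal bimultiplicative map -/
def tens (Q₁ : Type u) (Q₂ : Type v) [Group Q₁] [Group Q₂] : Q₁ →* Q₂ →* abTensor Q₁ Q₂ where
  toFun x :=
    { toFun := fun y => Multiplicative.ofAdd
        (Additive.ofMul (Abelianization.of x) ⊗ₜ[ℤ] Additive.ofMul (Abelianization.of y))
      map_one' := by simp
      map_mul' := fun y z => by simp [tmul_add, ofAdd_add] }
  map_one' := by ext y; simp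
  map_mul' x y := by
    refine MonoidHom.ext fun z => ?_
    simp only [map_mul, ofMul_mul, add_tmul, ofAdd_add, MonoidHom.coe_mk,
      OneHom.coe_mk, MonoidHom.mul_apply]

theorem tens_apply (x : Q₁) (y : Q₂) : tens Q₁ Q₂ x y = Multiplicative.ofAdd
    (Additive.ofMul (Abelianization.of x) ⊗ₜ[ℤ] Additive.ofMul (Abelianization.of y)) := rfl

theorem tens_induction (H : Subgroup (abTensor Q₁ Q₂)) (h : ∀ x y, tens Q₁ Q₂ x y ∈ H) : H = ⊤ := by
  rw [eq_top_iff]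
  intro t ht
  clear ht
  have : ∀ s : TensorProduct ℤ (Additive (Abelianization Q₁)) (Additive (Abelianization Q₂)),
      Multiplicative.ofAdd s ∈ H := by
    intro s
    induction s using TensorProduct.induction_on with
    | zero => exact H.one_mem
    | tmul a b =>
      obtain ⟨x, hx⟩ := QuotientGroup.mk_surjective (Additive.toMul a)
      obtain ⟨y, hy⟩ := QuotientGroup.mk_surjective (Additive.toMul b)
      have h1 : a = Additive.ofMul (Abelianization.of x) := congrArg Additive.ofMul hx.symm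
      have h2 : b = Additive.ofMul (Abelianization.of y) := congrArg Additive.ofMul hy.symm
      rw [h1, h2]
      exact h x y
    | add a b ha hb => exact H.mul_mem ha hb
  exact this t.toAdd

theorem finite_abTensor [Finite Q₁] [Finite Q₂] : Finite (abTensor Q₁ Q₂) := by
  have h1 : Group.FG (abTensor Q₁ Q₂) := by
    rw [Group.fg_iff]
    refine ⟨Set.range (fun p : Q₁ × Q₂ => tens Q₁ Q₂ p.1 p.2), ?_, Set.finite_range _⟩
    exact tens_induction _ fun x y => Subgroup.subset_closure ⟨(x, y), rfl⟩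
  refine CommGroup.finite_of_fg_isMulTorsion _ ?_
  have h2 := tens_induction (CommGroup.torsion (abTensor Q₁ Q₂)) fun x y =>
    (tens Q₁ Q₂ x).isOfFinOrder (isOfFinOrder_of_finite y)
  intro t
  have : t ∈ CommGroup.torsion (abTensor Q₁ Q₂) := h2 ▸ trivial
  exact this

/-- universal property -/
theorem exists_tens_lift {K : Type*} [CommGroup K] (c : Q₁ →* Q₂ →* K) :
    ∃ c' : abTensor Q₁ Q₂ →* K, ∀ x y, c' (tens Q₁ Q₂ x y) = c x y := by
  let c1 : Abelianization Q₂ →* Abelianization Q₁ →* K :=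
    Abelianization.lift (Abelianization.lift c).flip
  let c2 : Additive (Abelianization Q₁) →ₗ[ℤ] Additive (Abelianization Q₂) →ₗ[ℤ] Additive K :=
    LinearMap.mk₂ ℤ (fun a b => Additive.ofMul (c1 b.toMul a.toMul))
      (fun a a' b => by simp) (fun n a b => by simp) (fun a b b' => by simp)
      (fun n a b => by simp)
  refine ⟨MonoidHom.toAdditiveRight.symm (TensorProduct.lift c2).toAddMonoidHom |>.comp
    (MonoidHom.id _), fun x y => ?_⟩
  simp [tens_apply, c2, c1]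

end

/-- a bimultiplicative map killing the kernels of two surjections descends -/
theorem exists_descend {X₁ X₂ Q₁ Q₂ K : Type*} [Group X₁] [Group X₂] [Group Q₁] [Group Q₂]
    [CommGroup K] (f₁ : X₁ →* Q₁) (h₁ : Function.Surjective f₁) (f₂ : X₂ →* Q₂)
    (h₂ : Function.Surjective f₂) (c : X₁ →* X₂ →* K) (hc₁ : ∀ x ∈ f₁.ker, ∀ y, c x y = 1)
    (hc₂ : ∀ y ∈ f₂.ker, ∀ x, c x y = 1) :
    ∃ c' : Q₁ →* Q₂ →* K, ∀ x y, c' (f₁ x) (f₂ y) = c x y := by
  let c1 : Q₁ →* X₂ →* K := f₁.liftOfSurjective h₁ ⟨c, fun x hx => MonoidHom.ext (hc₁ x hx)⟩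
  have hc1 : ∀ x, c1 (f₁ x) = c x := fun x => MonoidHom.liftOfRightInverse_comp_apply _ _ _ _ x
  let c2 : Q₂ →* Q₁ →* K := f₂.liftOfSurjective h₂ ⟨c1.flip, fun y hy => MonoidHom.ext fun q => by
    obtain ⟨x, rfl⟩ := h₁ q
    simp [hc1, hc₂ y hy]⟩
  have hc2 : ∀ y, c2 (f₂ y) = c1.flip y := fun y =>
    MonoidHom.liftOfRightInverse_comp_apply _ _ _ _ y
  exact ⟨c2.flip, fun x y => by simp [hc2, hc1]⟩

theorem commutator_le_sup {Δ : Type*} [Group Δ] (D₁ D₂ : Subgroup Δ) [D₁.Normal] [D₂.Normal]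
    (h : ∀ x : Δ, ∃ a ∈ D₁, ∃ b ∈ D₂, x = a * b) :
    commutator Δ ≤ (⁅D₁, D₁⁆ ⊔ ⁅D₂, D₂⁆) ⊔ ⁅D₁, D₂⁆ := by
  set N := (⁅D₁, D₁⁆ ⊔ ⁅D₂, D₂⁆) ⊔ ⁅D₁, D₂⁆ with hN
  have key : ∀ a b : Δ, ⁅a, b⁆ ∈ N → Commute (QuotientGroup.mk' N a) (QuotientGroup.mk' N b) := by
    intro a b hab
    rw [← commutatorElement_eq_one_iff_commute, ← map_commutatorElement, QuotientGroup.mk'_apply,
      QuotientGroup.eq_one_iff]
    exact hab
  rw [commutator_def, Subgroup.commutator_le]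
  intro x _ y _
  obtain ⟨a, ha, b, hb, rfl⟩ := h x
  obtain ⟨c, hc, d, hd, rfl⟩ := h y
  rw [← QuotientGroup.eq_one_iff, ← QuotientGroup.mk'_apply, map_commutatorElement,
    commutatorElement_eq_one_iff_commute, map_mul, map_mul]
  have h1 := key a c (Subgroup.mem_sup_left (Subgroup.mem_sup_left
    (Subgroup.commutator_mem_commutator ha hc)))
  have h2 := key b d (Subgroup.mem_sup_left (Subgroup.mem_sup_right
    (Subgroup.commutator_mem_commutator hb hd)))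
  have h3 := key a d (Subgroup.mem_sup_right (Subgroup.commutator_mem_commutator ha hd))
  have h4 := key c b (Subgroup.mem_sup_right (Subgroup.commutator_mem_commutator hc hb))
  exact (h1.mul_right h3).mul_left (h4.symm.mul_right h2)

/-- The commutator map of two subgroups whose commutators lie in a central subgroup. -/
def commMap {Δ : Type*} [Group Δ] (D₁ D₂ K : Subgroup Δ) (hK : K ≤ Subgroup.center Δ)
    (h : ∀ a ∈ D₁, ∀ b ∈ D₂, ⁅a, b⁆ ∈ K) :
    letI := centralCommGroup K hK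
    D₁ →* D₂ →* K :=
  letI := centralCommGroup K hK
  { toFun := fun a =>
      { toFun := fun b => ⟨⁅(a : Δ), (b : Δ)⁆, h a a.2 b b.2⟩
        map_one' := by ext; simp
        map_mul' := fun b b' => by
          ext
          have := Subgroup.mem_center_iff.1 (hK (h a a.2 b' b'.2)) b
          simp only [Subgroup.coe_mul]
          calc ⁅(a : Δ), (b : Δ) * b'⁆ = ⁅(a : Δ), (b : Δ)⁆ * (b * ⁅(a : Δ), (b' : Δ)⁆) * (b : Δ)⁻¹ := by
                simp only [commutatorElement_def]; group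
            _ = _ := by rw [this]; group }
    map_one' := by ext; simp
    map_mul' := fun a a' => by
      ext b
      have := Subgroup.mem_center_iff.1 (hK (h a' a'.2 b b.2)) a
      have h2 := Subgroup.mem_center_iff.1 (hK (h a' a'.2 b b.2)) ⁅(a : Δ), (b : Δ)⁆
      change ⁅(a : Δ) * a', (b : Δ)⁆ = ⁅(a : Δ), (b : Δ)⁆ * ⁅(a' : Δ), (b : Δ)⁆
      calc ⁅(a : Δ) * a', (b : Δ)⁆
          = (a * ⁅(a' : Δ), (b : Δ)⁆) * (a : Δ)⁻¹ * ⁅(a : Δ), (b : Δ)⁆ := by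
            simp only [commutatorElement_def]; group
        _ = _ := by rw [this, h2]; group }

section
variable {Q₁ : Type u} {Q₂ : Type v} [Group Q₁] [Group Q₂]

theorem card_ker_le_prod [Finite Q₁] [Finite Q₂] {A B : Type*} [CommGroup A] [CommGroup B]
    (hA : HasSchurMultiplier Q₁ A) (hB : HasSchurMultiplier Q₂ B) {Δ : Type*} [Group Δ]
    {τ : Δ →* Q₁ × Q₂} (hτ : IsStemExtension τ) :
    Nat.card τ.ker ≤ Nat.card (A × B × abTensor Q₁ Q₂) := by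
  have := finite_of_hasSchurMultiplier hA
  have := finite_of_hasSchurMultiplier hB
  have := finite_abTensor (Q₁ := Q₁) (Q₂ := Q₂)
  let D₁ := ((MonoidHom.snd Q₁ Q₂).comp τ).ker
  let D₂ := ((MonoidHom.fst Q₁ Q₂).comp τ).ker
  let τ₁ : D₁ →* Q₁ := ((MonoidHom.fst Q₁ Q₂).comp τ).comp D₁.subtype
  let τ₂ : D₂ →* Q₂ := ((MonoidHom.snd Q₁ Q₂).comp τ).comp D₂.subtype
  have hs₁ : Function.Surjective τ₁ := fun q => by
    obtain ⟨x, hx⟩ := hτ.1 (q, 1)
    exact ⟨⟨x, congrArg Prod.snd hx⟩, congrArg Prod.fst hx⟩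
  have hs₂ : Function.Surjective τ₂ := fun q => by
    obtain ⟨x, hx⟩ := hτ.1 (1, q)
    exact ⟨⟨x, congrArg Prod.fst hx⟩, congrArg Prod.snd hx⟩
  have hk₁ : ∀ x ∈ τ₁.ker, (x : Δ) ∈ τ.ker := fun x hx => Prod.ext hx x.2
  have hk₂ : ∀ x ∈ τ₂.ker, (x : Δ) ∈ τ.ker := fun x hx => Prod.ext x.2 hx
  obtain ⟨p₁, hp₁⟩ := exists_surjective_ker_inf hA τ₁ hs₁ (fun x hx => by
    rw [Subgroup.mem_center_iff]
    exact fun g => Subtype.ext (Subgroup.mem_center_iff.1 (hτ.2.1 (hk₁ x hx)) g))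
  obtain ⟨p₂, hp₂⟩ := exists_surjective_ker_inf hB τ₂ hs₂ (fun x hx => by
    rw [Subgroup.mem_center_iff]
    exact fun g => Subtype.ext (Subgroup.mem_center_iff.1 (hτ.2.1 (hk₂ x hx)) g))
  have hcomm : ∀ a ∈ D₁, ∀ b ∈ D₂, ⁅a, b⁆ ∈ τ.ker := by
    intro a ha b hb
    have ha' : (τ a).2 = 1 := ha
    have hb' : (τ b).1 = 1 := hb
    rw [MonoidHom.mem_ker, map_commutatorElement, commutatorElement_eq_one_iff_mul_comm]
    ext <;> simp [ha', hb']
  letI := centralCommGroup τ.ker hτ.2.1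
  obtain ⟨c, hc⟩ := exists_descend τ₁ hs₁ τ₂ hs₂ (commMap D₁ D₂ τ.ker hτ.2.1 hcomm)
    (fun x hx y => Subtype.ext (commutatorElement_eq_one_iff_mul_comm.2
      (Subgroup.mem_center_iff.1 (hτ.2.1 (hk₁ x hx)) y).symm))
    (fun y hy x => Subtype.ext (commutatorElement_eq_one_iff_mul_comm.2
      (Subgroup.mem_center_iff.1 (hτ.2.1 (hk₂ y hy)) x)))
  obtain ⟨c', hc'⟩ := exists_tens_lift c
  have hrange : ⁅D₁, D₂⁆ ≤ c'.range.map τ.ker.subtype := by
    rw [Subgroup.commutator_le]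
    intro a ha b hb
    refine ⟨c' (tens Q₁ Q₂ (τ₁ ⟨a, ha⟩) (τ₂ ⟨b, hb⟩)), ⟨_, rfl⟩, ?_⟩
    rw [hc', hc]
    rfl
  let f : A × B × abTensor Q₁ Q₂ → τ.ker := fun x =>
    ⟨(p₁ x.1 : D₁), hk₁ _ (p₁ x.1).2.1⟩ * ⟨(p₂ x.2.1 : D₂), hk₂ _ (p₂ x.2.1).2.1⟩ * c' x.2.2
  refine Nat.card_le_card_of_surjective f ?_
  rintro ⟨k, hk⟩
  have h1 := commutator_le_sup D₁ D₂ (fun x => by
    obtain ⟨a, ha⟩ := hτ.1 ((τ x).1, 1)
    refine ⟨a, congrArg Prod.snd ha, a⁻¹ * x, ?_, by group⟩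
    show (τ (a⁻¹ * x)).1 = 1
    simp [ha]) (hτ.2.2 hk)
  obtain ⟨d, hd, e, he, rfl⟩ := Subgroup.mem_sup_of_normal_right.1 h1
  obtain ⟨d₁, hd₁, d₂, hd₂, rfl⟩ := Subgroup.mem_sup_of_normal_right.1 hd
  obtain ⟨_, ⟨t, rfl⟩, rfl⟩ := hrange he
  have hd₁' : d₁ ∈ D₁ := Subgroup.commutator_le_left _ _ hd₁
  have hd₂' : d₂ ∈ D₂ := Subgroup.commutator_le_left _ _ hd₂
  have h2 : τ d₁ * τ d₂ = 1 := by
    have h3 : τ (τ.ker.subtype (c' t)) = 1 := (c' t).2
    rw [MonoidHom.mem_ker, map_mul, h3, mul_one, map_mul] at hk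
    exact hk
  have h4 : (τ d₁).1 = 1 := by
    have h5 : (τ d₂).1 = 1 := hd₂'
    simpa [h5] using congrArg Prod.fst h2
  have h6 : (τ d₂).2 = 1 := by
    have h5 : (τ d₁).2 = 1 := hd₁'
    simpa [h5] using congrArg Prod.snd h2
  have h7 : (⟨d₁, hd₁'⟩ : D₁) ∈ commutator D₁ := by
    rw [← Subgroup.map_subtype_commutator] at hd₁
    obtain ⟨y, hy, rfl⟩ := hd₁
    exact hy
  have h8 : (⟨d₂, hd₂'⟩ : D₂) ∈ commutator D₂ := by
    rw [← Subgroup.map_subtype_commutator] at hd₂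
    obtain ⟨y, hy, rfl⟩ := hd₂
    exact hy
  obtain ⟨a, ha⟩ := hp₁ ⟨⟨d₁, hd₁'⟩, h4, h7⟩
  obtain ⟨b, hb⟩ := hp₂ ⟨⟨d₂, hd₂'⟩, h6, h8⟩
  refine ⟨(a, b, t), Subtype.ext ?_⟩
  simp only [f, ha, hb]
  rfl

/-- the bimultiplicative map on `Γ₁ × Γ₂` used to build a cover of a product -/
def prodBeta {Γ₁ Γ₂ : Type*} [Group Γ₁] [Group Γ₂] (σ₁ : Γ₁ →* Q₁) (σ₂ : Γ₂ →* Q₂) :
    (Γ₁ × Γ₂) →* (Γ₁ × Γ₂) →* abTensor Q₁ Q₂ where
  toFun x := (tens Q₁ Q₂ (σ₁ x.1)).comp (σ₂.comp (MonoidHom.snd _ _))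
  map_one' := by ext <;> simp
  map_mul' x y := by
    refine MonoidHom.ext fun z => ?_
    simp

theorem prodBeta_apply {Γ₁ Γ₂ : Type*} [Group Γ₁] [Group Γ₂] (σ₁ : Γ₁ →* Q₁) (σ₂ : Γ₂ →* Q₂)
    (x y : Γ₁ × Γ₂) : prodBeta σ₁ σ₂ x y = tens Q₁ Q₂ (σ₁ x.1) (σ₂ y.2) := rfl

theorem hasSchurMultiplier_prod [Finite Q₁] [Finite Q₂] {A B : Type*} [CommGroup A] [CommGroup B]
    (hA : HasSchurMultiplier Q₁ A) (hB : HasSchurMultiplier Q₂ B) :
    HasSchurMultiplier (Q₁ × Q₂) (A × B × abTensor Q₁ Q₂) := by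
  obtain ⟨Γ₁, _, _, σ₁, h₁, ⟨e₁⟩⟩ := hA.1
  obtain ⟨Γ₂, _, _, σ₂, h₂, ⟨e₂⟩⟩ := hB.1
  let β := prodBeta σ₁ σ₂
  let σ : BExt β →* Q₁ × Q₂ := (σ₁.prodMap σ₂).comp (BExt.proj β)
  have hker : ∀ x : BExt β, x ∈ σ.ker ↔ σ₁ x.q.1 = 1 ∧ σ₂ x.q.2 = 1 := fun x => Prod.ext_iff
  let ι₁ : Γ₁ →* BExt β :=
    { toFun := fun g => ⟨1, (g, 1)⟩
      map_one' := rfl
      map_mul' := fun g h => by ext <;> simp [β, prodBeta_apply] }
  let ι₂ : Γ₂ →* BExt β :=
    { toFun := fun g => ⟨1, (1, g)⟩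
      map_one' := rfl
      map_mul' := fun g h => by ext <;> simp [β, prodBeta_apply] }
  have hσ : IsStemExtension σ := by
    refine ⟨?_, fun x hx => ?_, fun x hx => ?_⟩
    · rintro ⟨q₁, q₂⟩
      obtain ⟨g₁, rfl⟩ := h₁.1 q₁
      obtain ⟨g₂, rfl⟩ := h₂.1 q₂
      exact ⟨⟨1, (g₁, g₂)⟩, rfl⟩
    · obtain ⟨hx₁, hx₂⟩ := (hker x).1 hx
      rw [Subgroup.mem_center_iff]
      intro g
      ext
      · simp [β, prodBeta_apply, hx₁, hx₂, mul_comm]
      · exact Subgroup.mem_center_iff.1 (h₁.2.1 hx₁) _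
      · exact Subgroup.mem_center_iff.1 (h₂.2.1 hx₂) _
    · obtain ⟨hx₁, hx₂⟩ := (hker x).1 hx
      have h3 : x = BExt.inl β x.t * ι₁ x.q.1 * ι₂ x.q.2 := by
        ext <;> simp [ι₁, ι₂, β, prodBeta_apply, hx₁]
      have h4 := tens_induction ((commutator _).comap (BExt.inl β)) (fun a b => by
        obtain ⟨g₁, rfl⟩ := h₁.1 a
        obtain ⟨g₂, rfl⟩ := h₂.1 b
        have h5 := BExt.commutator_eq_inl (ι₁ g₁) (ι₂ g₂) (by simp [ι₁, ι₂])
        simp only [ι₁, ι₂, β, prodBeta_apply, MonoidHom.coe_mk, OneHom.coe_mk, map_one, inv_one,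
          mul_one] at h5
        rw [Subgroup.mem_comap, ← h5]
        exact Subgroup.commutator_mem_commutator trivial trivial)
      have h6 : x.t ∈ (commutator _).comap (BExt.inl β) := h4 ▸ trivial
      rw [h3]
      exact Subgroup.mul_mem _ (Subgroup.mul_mem _ h6 (map_mem_commutator _ (h₁.2.2 hx₁)))
        (map_mem_commutator _ (h₂.2.2 hx₂))
  let e : σ.ker ≃* σ₁.ker × σ₂.ker × abTensor Q₁ Q₂ :=
    { toFun := fun x => (⟨x.1.q.1, ((hker x.1).1 x.2).1⟩, ⟨x.1.q.2, ((hker x.1).1 x.2).2⟩, x.1.t)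
      invFun := fun y => ⟨⟨y.2.2, (y.1, y.2.1)⟩, (hker _).2 ⟨y.1.2, y.2.1.2⟩⟩
      left_inv := fun x => rfl
      right_inv := fun y => rfl
      map_mul' := fun x y => by
        have := ((hker x.1).1 x.2).1
        refine Prod.ext rfl (Prod.ext rfl ?_)
        simp [β, prodBeta_apply, this] }
  exact hasSchurMultiplier_of_card hσ (e.trans (e₁.prodCongr (e₂.prodCongr (MulEquiv.refl _))))
    fun Δ _ _ τ hτ => card_ker_le_prod hA hB hτ

theorem subsingleton_abTensor [Finite Q₁] [Finite Q₂]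
    (h : Nat.Coprime (Nat.card (Abelianization Q₁)) (Nat.card (Abelianization Q₂))) :
    Subsingleton (abTensor Q₁ Q₂) := by
  have h1 := tens_induction (Q₁ := Q₁) (Q₂ := Q₂) ⊥ (fun x y => by
    rw [Subgroup.mem_bot, ← orderOf_eq_one_iff]
    refine Nat.eq_one_of_dvd_coprimes h ?_ ?_
    · have h2 : tens Q₁ Q₂ x y = Abelianization.lift ((tens Q₁ Q₂).flip y) (Abelianization.of x) := by
        simp
      rw [h2]
      exact (orderOf_map_dvd _ _).trans (orderOf_dvd_natCard _)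
    · have h2 : tens Q₁ Q₂ x y = Abelianization.lift (tens Q₁ Q₂ x) (Abelianization.of y) := by
        simp
      rw [h2]
      exact (orderOf_map_dvd _ _).trans (orderOf_dvd_natCard _))
  exact Subgroup.subsingleton_iff.1 (subsingleton_of_bot_eq_top h1)

end

end H78.Schur
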