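import Cfsg.Agent.Lib.Schur.RealF
import Cfsg.Agent.Lib.Cover.Stable

/-! Lower bounds for the Schur multiplier of a permutation group from a stable covering group of a point stabiliser. -/

set_option autoImplicit false

namespace H60

open H54 H19.Cov Cfsg MulAction
open scoped commutatorElement

universe u

theorem st_all {E G Ω : Type*} [Group E] [Group G] [MulAction G Ω] {π : E →* G} (hc : π.ker ≤ Subgroup.center E)
    {ω : Ω} (hU : π.range = stabilizer G ω) (h : ∀ g : G, g • ω = ω ∨ ∃ (e : E) (t : G) (y : Ω), t • y = ω ∧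
      π e • y = g • ω ∧ St π t {x | x ∈ π.range ∧ x • y = y}) (g : G) :
    St π g {x | x ∈ π.range ∧ g * x * g⁻¹ ∈ π.range} := by
  rcases h g⁻¹ with h | ⟨e, t, y, h1, h2, h3⟩
  · exact st_of_mem_range hc (by rw [hU]; exact (inv_smul_eq_iff.1 h).symm) _
  · have h4 : g * π e * t⁻¹ ∈ π.range := by
      rw [hU, mem_stabilizer_iff, mul_smul, mul_smul, inv_smul_eq_iff.2 h1.symm, h2, smul_inv_smul]
    have := (st_of_mem_range hc h4 Set.univ).mul (h3.mul (st_of_mem_range hc (g := (π e)⁻¹) (inv_mem ⟨e, rfl⟩)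
      {x | x ∈ π.range ∧ g * x * g⁻¹ ∈ π.range}) fun x hx => ⟨mul_mem (mul_mem (inv_mem ⟨e, rfl⟩) hx.1)
        (inv_mem (inv_mem ⟨e, rfl⟩)), by
          have h5 : (g * x * g⁻¹) • ω = ω := by have := hx.2; rwa [hU] at this
          rw [inv_inv, mul_smul, mul_smul, h2, inv_smul_eq_iff, h2, eq_inv_smul_iff, ← mul_smul, ← mul_smul, h5]⟩)
      fun _ _ => trivial
    simpa [mul_assoc] using this

section
variable {G Ω : Type*} [Group G] [MulAction G Ω] {c : Cfg} {pt : ℕ → Ω}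

theorem rest_grp (X : Ctx c pt) {ch : Chain} {H : Subgroup G} (a : Good c pt ch H) (hne : ch ≠ .nil)
    (hS : ∀ s ∈ ch.gens, In c pt H s) (h : checkLow c ch = true) : ch.base < c.n ∧ Valid G c pt ch.rest.gens ∧
      grp G c pt ch.rest.gens = H ⊓ stabilizer G (pt ch.base) ∧ TblOk c pt H ch.base ch.orb ch.table ∧
      ∀ g ∈ H, ∃ δ, tb ch.orb δ = true ∧ g • pt ch.base = pt δ := by
  cases ch with
  | nil => exact absurd rfl hne
  | cons b D tbl S W rest =>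
    have h' : band (lowLvl c (.cons b D tbl S W rest)) (checkLow c rest) = true := h
    rw [band_eq_true] at h'
    obtain ⟨hb, -, hn, -⟩ := lowLvl_spec X hS h'.1
    exact ⟨hb, valid_of_in hn, (a.2.2.2.base_change X hn h'.2 le_rfl).2, a.2.1, a.2.2.1⟩

end

/-- `E` acts faithfully on the points of `c₂`, on the first ones as `G` -/
structure Cv {E G Ω Ω₂ : Type*} [Group E] [Group G] [MulAction G Ω] [MulAction E Ω₂] (c : Cfg) (pt : ℕ → Ω)
    (c₂ : Cfg) (pt₂ : ℕ → Ω₂) (ξ : E →* G) : Prop where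
  X : Ctx c₂ pt₂
  K : Kfix E c₂ pt₂ = ⊥
  le : c.n ≤ c₂.n
  act : ∀ x i j, i < c.n → (x • pt₂ i = pt₂ j ↔ j < c.n ∧ ξ x • pt i = pt j)

def wv (W i : ℕ) : ℕ := Nat.land (Nat.shiftRight W (Nat.mul 16 i)) 65535

/-- `γ` is the action of the pair `(e, f)` on the points listed in `W`, and `f` covers the conjugate of `e` by `t` -/
noncomputable def pairOk (c c₂ c₃ : Cfg) (chE : Chain) (bs : List ℕ) (t W k e f γ : ℕ) : Bool :=
  force e fun e => force f fun f => force γ fun γ => band (membF c₂ chE e) (band (membF c₂ chE f)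
    (band (allL (fun b => Nat.beq (c₂.get f (c.get t b)) (c.get t (c₂.get e b))) bs)
      (allLt (fun i => force (c₃.get γ i) fun j => sel (Nat.ble k i)
        (band (Nat.ble k j) (band (Nat.ble (Nat.succ j) c₃.n) (Nat.beq (wv W j) (c₂.get f (wv W i)))))
        (band (Nat.ble (Nat.succ j) k) (Nat.beq (wv W j) (c₂.get e (wv W i))))) c₃.n)))

/-- the data of one double coset -/
noncomputable def dcOk (c c₂ c₃ : Cfg) (ch₀ chE ch ch₃ : Chain) (z t W k : ℕ) (F : List ℕ) : Bool :=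
  force W fun W => force t fun t =>
  band (band (allL (membF c₂ chE) ch.gens) (Nat.ble (chE.size c₂.n) (ch.size c₂.n)))
  (band (band (membF c ch₀ t) (band (Nat.ble (Nat.succ ch.base) c.n) (Nat.beq (c.get t ch.base) ch₀.base)))
  (band (band (Nat.ble (Nat.succ k) c₃.n) (band (allL (fun b => Nat.ble (Nat.succ b) k) ch₃.baseList)
    (Nat.beq (Nat.beq (c₂.get z (wv W k)) (wv W k)).toNat 0)))
  (band (allLt (fun i => band (Nat.ble (Nat.succ (wv W i)) c₂.n) (bor (Nat.beq (Nat.succ i) k)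
    (bor (Nat.beq (Nat.succ i) c₃.n) (Nat.ble (Nat.succ (wv W i)) (wv W (Nat.succ i)))))) c₃.n)
  (band (Nat.beq (len ch₃.gens) (Nat.succ (len ch.rest.gens)))
    (allLt (fun i => pairOk c c₂ c₃ chE ch₀.baseList t W k (nth (z :: ch.rest.gens) i) (nth (z :: F) i)
      (nth ch₃.gens i)) (len ch₃.gens))))))

theorem lt_of_step {w : ℕ → ℕ} {a b : ℕ} (h : ∀ i, a ≤ i → i + 1 < b → w i < w (i + 1)) {i j : ℕ} (hi : a ≤ i)
    (hij : i < j) (hj : j < b) : w i < w j := by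
  induction j with
  | zero => omega
  | succ j ih =>
    rcases Nat.lt_succ_iff_lt_or_eq.1 hij with h1 | rfl
    · exact (ih h1 (by omega)).trans (h j (by omega) hj)
    · exact h i hi hj

theorem eq_of_step {w : ℕ → ℕ} {a b : ℕ} (h : ∀ i, a ≤ i → i + 1 < b → w i < w (i + 1)) {i j : ℕ} (hi : a ≤ i)
    (hi' : i < b) (hj : a ≤ j) (hj' : j < b) (e : w i = w j) : i = j := by
  rcases lt_trichotomy i j with h1 | h1 | h1
  · exact absurd e (lt_of_step h hi h1 hj').ne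
  · exact h1
  · exact absurd e (lt_of_step h hj h1 hi').ne'

theorem mem_nth {l : List ℕ} {s : ℕ} (h : s ∈ l) : ∃ i, i < l.length ∧ nth l i = s := by
  obtain ⟨i, hi, rfl⟩ := List.getElem_of_mem h
  exact ⟨i, hi, nth_eq_getElem l i hi⟩

variable {E G Ω Ω₂ : Type*} [Group E] [Group G] [MulAction G Ω] [MulAction E Ω₂] {c c₂ c₃ : Cfg} {pt : ℕ → Ω}
  {pt₂ : ℕ → Ω₂} {ξ : E →* G}

theorem Cv.rep (cv : Cv c pt c₂ pt₂ ξ) {x : E} {s : ℕ} (r : Rep c₂ pt₂ x s) : RepF c pt (ξ x) (c₂.get s) :=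
  fun i hi => (cv.act x i _ hi).1 (r i (hi.trans_le cv.le)).2

theorem st_of_dc [Finite E] (X : Ctx c pt) (hK : Kfix G c pt = ⊥) (cv : Cv c pt c₂ pt₂ ξ) {ch₀ chE ch ch₃ : Chain}
    (g₀ : Good c pt ch₀ (⊤ : Subgroup G)) (gE : Good c₂ pt₂ chE (⊤ : Subgroup E)) (hm : (Nat.card ξ.ker).Prime)
    {z t W k : ℕ} (hz : In c₂ pt₂ ξ.ker z) {F : List ℕ} (hne : ch ≠ .nil) (hl : checkLow c₂ ch = true)
    (h3 : c₃.check = true) (hl3 : checkLow c₃ ch₃ = true) (hu3 : checkUpF c₃ ch₃ = true)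
    (h : dcOk c c₂ c₃ ch₀ chE ch ch₃ z t W k F = true) {δ : ℕ} (hδ : tb ch.orb δ = true) :
    ∃ (e : E) (t : G) (y : Ω), t • y = pt ch₀.base ∧ ξ e • y = pt δ ∧ St ξ t {x | x ∈ ξ.range ∧ x • y = y} := by
  classical
  simp only [dcOk, force_eq, band_eq_true, bor_eq_true, allLt_iff, Nat.ble_eq, Nat.beq_eq, len_eq] at h
  obtain ⟨⟨a1, a2⟩, ⟨b1, b2, b3⟩, ⟨c1, c2, c3⟩, d1, e1, e2⟩ := h
  have hS := all_inF cv.X gE a1
  obtain ⟨hb, v, hR, tbl, -⟩ := rest_grp cv.X (gE.base_change cv.X hS hl a2).1 hne hS hl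
  obtain ⟨e, -, -, he⟩ := tbl.exists hb hδ
  obtain ⟨τ, -, rτ⟩ := in_of_membF X g₀.low b1
  refine ⟨e, τ, pt ch.base, by rw [rτ.smul_eq b2, b3], ((cv.act _ _ _ b2).1 he).2, ?_⟩
  obtain ⟨ζ, hζ, rζ⟩ := hz
  let p₃ : ℕ → SumPt Ω₂ Ω₂ := sumPt k (fun i => pt₂ (wv W i)) fun i => pt₂ (wv W (i + k))
  have p1 : ∀ {i}, i < k → p₃ i = (Sum.inl (pt₂ (wv W i)) : Ω₂ ⊕ Ω₂) := fun hi => sumPt_lt hi
  have p2 : ∀ {i}, k ≤ i → p₃ i = (Sum.inr (pt₂ (wv W i)) : Ω₂ ⊕ Ω₂) := fun hi => by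
    rw [← Nat.sub_add_cancel hi]
    exact (sumPt_ge (Nat.le_add_left _ _)).trans (by rw [Nat.add_sub_cancel])
  have X₃ : Ctx c₃ p₃ := ⟨c₃.ok_of_check h3, fun i j hi hj e => by
    rcases Nat.lt_or_ge i k with h1 | h1 <;> rcases Nat.lt_or_ge j k with h2 | h2
    · exact eq_of_step (a := 0) (b := k) (fun i _ h => ((d1 i (by omega)).2.resolve_left (by omega)).resolve_left
        (by omega)) (Nat.zero_le _) h1 (Nat.zero_le _) h2
        (cv.X.inj _ _ (d1 i hi).1 (d1 j hj).1 (Sum.inl.inj ((p1 h1).symm.trans (e.trans (p1 h2)))))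
    · exact absurd ((p1 h1).symm.trans (e.trans (p2 h2))) Sum.inl_ne_inr
    · exact absurd ((p2 h1).symm.trans (e.trans (p1 h2))) Sum.inr_ne_inl
    · exact eq_of_step (a := k) (b := c₃.n) (fun i _ h => ((d1 i (by omega)).2.resolve_left (by omega)).resolve_left
        (by omega)) h1 hi h2 hj
        (cv.X.inj _ _ (d1 i hi).1 (d1 j hj).1 (Sum.inr.inj ((p2 h1).symm.trans (e.trans (p2 h2)))))⟩
  have key : ∀ i : Fin ch₃.gens.length, ∃ p : E × E, Rep c₂ pt₂ p.1 (nth (z :: ch.rest.gens) i) ∧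
      Rep c₂ pt₂ p.2 (nth (z :: F) i) ∧ Rep c₃ p₃ p (nth ch₃.gens i) ∧ ξ p.2 = τ * ξ p.1 * τ⁻¹ := fun i => by
    have := e2 i i.2
    simp only [pairOk, force_eq, band_eq_true, allLt_iff, allL_iff, Nat.beq_eq] at this
    obtain ⟨⟨x, -, rx⟩, ⟨y, -, ry⟩⟩ := And.intro (in_of_membF cv.X gE.low this.1) (in_of_membF cv.X gE.low this.2.1)
    refine ⟨(x, y), rx, ry, fun j hj => ?_, eq_mul_inv_of_mul_eq ?_⟩
    · have h4 := this.2.2.2 j hj
      rw [sel_eq] at h4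
      split_ifs at h4 with h5 <;> simp only [band_eq_true, Nat.ble_eq, Nat.beq_eq] at h4 h5
      · exact ⟨h4.2.1, by rw [p2 h5, p2 h4.1, h4.2.2, ← ry.smul_eq (d1 j hj).1]; rfl⟩
      · exact ⟨by omega, by rw [p1 (Nat.not_le.1 h5), p1 h4.1, h4.2, ← rx.smul_eq (d1 j hj).1]; rfl⟩
    · refine eq_of_base (pt := pt) (MonoidHom.id G) (fun w hw => by
        have := (good_base g₀).2 w trivial hw
        rwa [hK] at this) fun b hb' => ?_
      have h4 := (good_base g₀).1 b hb'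
      exact ((cv.rep ry).mul rτ b h4).2.trans ((congrArg pt (this.2.2.1 b hb')).trans
        (RepF.mul rτ (cv.rep rx) b h4).2.symm)
  choose P hP using key
  have good := good_of_checkF X₃ ch₃ (G := E × E) (fun s hs => by
    obtain ⟨i, hi, rfl⟩ := mem_nth hs
    exact ⟨_, (hP ⟨i, hi⟩).2.2.1⟩) hl3 hu3
  let Γ := Subgroup.closure (Set.range P)
  have hΓ : Γ ≤ grp (E × E) c₃ p₃ ch₃.gens := (Subgroup.closure_le _).2 (by
    rintro _ ⟨i, rfl⟩
    exact mem_grp_of_rep (nth_mem _ _ i.2) (hP i).2.2.1)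
  have hξ : ∀ p ∈ Γ, ξ p.2 = τ * ξ p.1 * τ⁻¹ := fun p hp => by
    induction hp using Subgroup.closure_induction with
    | mem x hx => obtain ⟨i, rfl⟩ := hx; exact (hP i).2.2.2
    | one => simp
    | mul x y _ _ hx hy => simp [hx, hy]
    | inv x _ hx => simp [hx, mul_assoc]
  have hq : ζ • pt₂ (wv W k) ≠ pt₂ (wv W k) := fun e => by
    rw [rζ.smul_eq (d1 k c1).1] at e
    rw [cv.X.inj _ _ (rζ.lt (d1 k c1).1) (d1 k c1).1 e, Nat.beq_refl] at c3
    exact absurd c3 (by decide)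
  have hker : ∀ J : Subgroup E, J ≤ ξ.ker → J = ⊥ ∨ J = ξ.ker := fun J hJ =>
    (hm.eq_one_or_self_of_dvd _ (Subgroup.card_dvd_of_le hJ)).imp (Subgroup.eq_bot_of_card_eq J)
      fun e => Subgroup.eq_of_le_of_card_ge hJ e.ge
  have uniq : ∀ x y y', (x, y) ∈ Γ → (x, y') ∈ Γ → y = y' := fun x y y' h1 h2 => by
    have h4 : ((1 : E), y⁻¹ * y') ∈ Γ := by simpa using mul_mem (inv_mem h1) h2
    have h5 := (good_base good).2 _ (hΓ h4) (fun b hb' => by
      rw [p1 (Nat.le_of_ble_eq_true ((allL_iff _ _).1 c2 b hb'))]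
      exact congrArg Sum.inl (one_smul _ _)) k c1
    rw [p2 le_rfl] at h5
    have h6 : y⁻¹ * y' ∈ ξ.ker ⊓ stabilizer E (pt₂ (wv W k)) := ⟨by simpa using hξ _ h4, Sum.inr.inj h5⟩
    rcases hker _ (inf_le_left (b := stabilizer E (pt₂ (wv W k)))) with h7 | h7
    · rw [h7] at h6; exact inv_mul_eq_one.1 h6
    · exact absurd (h7.ge hζ).2 hq
  have ex : ∀ x : E, ξ x ∈ {x | x ∈ ξ.range ∧ x • pt ch.base = pt ch.base} → ∃ y, (x, y) ∈ Γ := fun x hx => by
    have h4 : grp E c₂ pt₂ ch.rest.gens ≤ Γ.map (MonoidHom.fst E E) := grp_le (cv.K ▸ bot_le) fun s hs => by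
      obtain ⟨i, hi, rfl⟩ := mem_nth hs
      exact ⟨_, ⟨_, Subgroup.subset_closure ⟨⟨i + 1, by omega⟩, rfl⟩, rfl⟩, (hP ⟨i + 1, by omega⟩).1⟩
    obtain ⟨p, hp, rfl⟩ := h4 (hR.ge ⟨trivial, (cv.act x _ _ b2).2 ⟨b2, hx.2⟩⟩)
    exact ⟨p.2, hp⟩
  have hζ' : (ζ, ζ) ∈ Γ := by
    have := hP ⟨0, by omega⟩
    rw [show (ζ, ζ) = P ⟨0, by omega⟩ from Prod.ext (rζ.eq_of_bot cv.K this.1) (rζ.eq_of_bot cv.K this.2.1)]
    exact Subgroup.subset_closure ⟨_, rfl⟩
  have ch' : ∀ x : E, ∃ y, (∃ y, (x, y) ∈ Γ) → (x, y) ∈ Γ := fun x =>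
    (Classical.em (∃ y, (x, y) ∈ Γ)).elim (fun ⟨y, h⟩ => ⟨y, fun _ => h⟩) fun h => ⟨1, fun h' => absurd h' h⟩
  choose φ hφ using ch'
  refine ⟨φ, fun x y hx hy => ?_, fun x hx => hξ _ (hφ x (ex x hx)), fun x hx => ?_⟩
  · have := mul_mem (hφ x (ex x hx)) (hφ y (ex y hy))
    exact uniq _ _ _ (hφ _ ⟨_, this⟩) this
  · have h4 : (x, x) ∈ Γ := by
      rcases hker (Subgroup.zpowers ζ) (Subgroup.zpowers_le.2 hζ) with h7 | h7
      · exact absurd (by rw [Subgroup.zpowers_eq_bot.1 h7, one_smul]) hq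
      · obtain ⟨j, rfl⟩ := h7.ge hx
        exact zpow_mem hζ' j
    exact uniq _ _ _ (hφ _ ⟨_, h4⟩) h4

theorem exists_cv {G : Type u} {Ω : Type*} [Group G] [MulAction G Ω] [Finite G] {c : Cfg} {pt : ℕ → Ω} (X : Ctx c pt)
    (hK : Kfix G c pt = ⊥) {S Q : List ℕ} (v : Valid G c pt S) {N : ℕ} [NeZero N] {c₂ : Cfg} (hc₂ : c₂.check = true)
    (hn : c₂.n = c.n + N) {ch chZ : Chain}
    (hh : joinAll c c₂ S ch.gens Q = true) (hl : checkLow c₂ ch = true) (hu : checkUpF c₂ ch = true)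
    (hz : checkLow c₂ chZ = true) {UV : List (ℕ × ℕ)} (hc : coverOk c.n c₂ ch chZ UV = true) {m M : ℕ}
    (hm : chZ.size c₂.n = m) (hG : Nat.card (grp G c pt S) = M) (hs : ch.size c₂.n ≤ m * M) :
    ∃ (E : Type u) (_ : Group E) (_ : Finite E) (Ω₂ : Type _) (_ : MulAction E Ω₂) (pt₂ : ℕ → Ω₂) (ξ : E →* G),
      Ω₂ = SumPt Ω (Fin N) ∧
      Cv c pt c₂ pt₂ ξ ∧ Good c₂ pt₂ ch (⊤ : Subgroup E) ∧ ξ.range = grp G c pt S ∧ ξ.ker ≤ Subgroup.center E ∧
      ξ.ker ≤ commutator E ∧ Nat.card ξ.ker = m ∧ ∀ s ∈ chZ.gens, In c₂ pt₂ ξ.ker s := by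
  simp only [joinAll, band_eq_true, Nat.beq_eq, len_eq, allLt_iff] at hh
  have ok := c₂.ok_of_check hc₂
  have X' : Ctx { c₂ with n := N } (finPt N) :=
    ⟨⟨ok.b_pos, by have := ok.n_le; show N ≤ c₂.N; omega, ok.N_le, ok.get_eq, ok.get_one, ok.net_spec⟩,
      fun i j hi hj e => by
        have := congrArg Fin.val e
        rwa [finPt_val hi, finPt_val hj] at this⟩
  have X₂ := ctx_sum X X' ok hn
  have hK₂ := Kfix_sum_bot (c₂ := c₂) (c' := { c₂ with n := N }) hn hK (Kfix_fin rfl)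
  obtain ⟨L, h1, h2⟩ : ∃ L : List (G × Equiv.Perm (Fin N)),
      List.Forall₂ (Rep c₂ (sumPt c.n pt (finPt N))) L ch.gens ∧ List.Forall₂ (Rep c pt) (L.map Prod.fst) S := by
    have key : ∀ k : Fin S.length, ∃ x : G × Equiv.Perm (Fin N),
        Rep c₂ (sumPt c.n pt (finPt N)) x (nth ch.gens k) ∧ Rep c pt x.1 (nth S k) := fun k => by
      obtain ⟨g, r⟩ := v _ (nth_mem S k k.2)
      obtain ⟨g', r'⟩ := exists_rep_join ok hn X' r (hh.2 k k.2)
      exact ⟨(g, g'), r', r⟩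
    choose x hx using key
    refine ⟨List.ofFn x, List.forall₂_of_length_eq_of_get (by simpa using hh.1) fun k a b => ?_,
      List.forall₂_of_length_eq_of_get (by simp) fun k a b => ?_⟩
    · simpa [nth_eq_getElem _ _ b] using (hx ⟨k, by simpa using a⟩).1
    · simpa [nth_eq_getElem _ _ b] using (hx ⟨k, b⟩).2
  have good := good_of_checkF X₂ ch (valid_of_forall₂ h1) hl hu
  have := good.finite X₂ hK₂
  set D := grp (G × Equiv.Perm (Fin N)) c₂ (sumPt c.n pt (finPt N)) ch.gens with hD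
  have eD : D = Subgroup.closure {g | g ∈ L} := grp_eq_closure hK₂ h1
  let ξ : D →* G := (MonoidHom.fst _ _).comp D.subtype
  have hr : ξ.range = grp G c pt S := by
    rw [MonoidHom.range_comp, Subgroup.range_subtype, eD, grp_eq_closure hK h2, MonoidHom.map_closure]
    congr 1; ext x; simp
  have hKD := Kfix_sub_eq_bot hK₂ D
  have hb : ∀ {x y : D} {f f' : ℕ → ℕ}, RepF c₂ (sumPt c.n pt (finPt N)) x f → RepF c₂ (sumPt c.n pt (finPt N)) y f' →
      (∀ b ∈ ch.baseList, f b = f' b) → x = y := fun {x y f f'} r r' h =>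
    eq_of_base (MonoidHom.id D) (fun w hw => by
      have := (good_base good.top).2 w trivial hw
      rwa [hKD] at this) fun b hb => by
        rw [(r b ((good_base good).1 b hb)).2, (r' b ((good_base good).1 b hb)).2, h b hb]
  let J : Subgroup D := ξ.ker ⊓ commutator D ⊓ Subgroup.center D
  have hJ : ∀ s ∈ chZ.gens, In c₂ (sumPt c.n pt (finPt N)) J s := by
    intro s hs
    obtain ⟨uv, h3⟩ := all2_spec _ _ _ hc s hs
    simp only [band_eq_true, allLt_iff, allL_iff, Nat.beq_eq] at h3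
    obtain ⟨a1, a2, a0, a3, a4, a5⟩ := h3
    obtain ⟨x, -, rx⟩ := in_of_membF X₂ good.top.low a1
    obtain ⟨y, -, ry⟩ := in_of_membF X₂ good.top.low a2
    obtain ⟨z, -, rz⟩ := in_of_membF X₂ good.top.low a0
    have e1 : x * y = z * (y * x) := hb (RepF.mul rx ry) (RepF.mul rz (RepF.mul ry rx)) a3
    refine ⟨z, ⟨⟨?_, ?_⟩, ?_⟩, rz⟩
    · have : ξ z ∈ Kfix G c pt := fun i hi => by
        have := rz.smul_eq (i := i) (by omega)
        rw [a4 i hi, sumPt_lt hi] at this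
        exact Sum.inl.inj this
      rwa [hK] at this
    · have : z = ⁅x, y⁆ := by rw [commutatorElement_def, e1]; group
      rw [this]
      exact Subgroup.commutator_mem_commutator trivial trivial
    · have h4 : D ≤ Subgroup.centralizer {(z : G × Equiv.Perm (Fin N))} := by
        refine grp_le (hK₂ ▸ bot_le) fun t ht => ?_
        obtain ⟨g, hg, rg⟩ := (valid_of_forall₂ h1).in_grp ht
        refine ⟨g, ?_, rg⟩
        rw [Subgroup.mem_centralizer_iff]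
        rintro _ rfl
        have rg' : Rep c₂ (sumPt c.n pt (finPt N)) (⟨g, hg⟩ : D) t := rg
        exact congrArg Subtype.val (hb (RepF.mul rz rg') (RepF.mul rg' rz) (a5 t ht))
      show _ ∈ Subgroup.center D
      rw [Subgroup.mem_center_iff]
      intro g
      exact Subtype.ext (Subgroup.mem_centralizer_iff.mp (h4 g.2) _ rfl).symm
  have h5 := size_le_card X₂ hKD hJ hz
  have h6 : Nat.card D = ch.size c₂.n := good.card X₂ hK₂
  have h9 : Nat.card ξ.ker * M = ch.size c₂.n := by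
    rw [← hG, ← hr, ← h6, ← Subgroup.card_mul_index ξ.ker, Subgroup.index_ker]
  have hM : 0 < M := hG ▸ Nat.card_pos
  have h10 : Nat.card ξ.ker ≤ m := Nat.le_of_mul_le_mul_right (h9 ▸ hs) hM
  have h7 : J = ξ.ker := Subgroup.eq_of_le_of_card_ge (inf_le_left.trans inf_le_left) (h10.trans (hm ▸ h5))
  refine ⟨D, inferInstance, this, _, inferInstance, _, ξ, rfl, ⟨⟨X₂.1, X₂.2⟩, hKD, by omega, fun x i j hi => ?_⟩,
    good.top, hr, h7.ge.trans inf_le_right, h7.ge.trans (inf_le_left.trans inf_le_right),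
    le_antisymm h10 (h7 ▸ hm ▸ h5), h7 ▸ hJ⟩
  rw [sumPt_lt hi]
  by_cases hj : j < c.n
  · rw [sumPt_lt hj]
    exact ⟨fun e => ⟨hj, Sum.inl.inj e⟩, fun e => congrArg Sum.inl e.2⟩
  · rw [sumPt_ge (Nat.not_lt.1 hj)]
    exact ⟨fun e => absurd e Sum.inl_ne_inr, fun e => absurd e.1 hj⟩

/-- The lower bound `m` for the multiplier of a group of rank at most 3 on the orbit of the base point. -/
theorem lowB_of_stab {G : Type u} {Ω : Type*} [Group G] [MulAction G Ω] [Finite G] {c : Cfg} {pt : ℕ → Ω}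
    (X : Ctx c pt) (hK : Kfix G c pt = ⊥) {ch₀ : Chain} (g₀ : Good c pt ch₀ (⊤ : Subgroup G)) (hne₀ : ch₀ ≠ .nil)
    (hS₀ : ∀ s ∈ ch₀.gens, In c pt (⊤ : Subgroup G) s) (hl₀ : checkLow c ch₀ = true) {Q : List ℕ} {N : ℕ} [NeZero N]
    {c₂ : Cfg} (hc₂ : c₂.check = true) (hn : c₂.n = c.n + N) {chE chZ : Chain}
    (hh : joinAll c c₂ ch₀.rest.gens chE.gens Q = true) (hl : checkLow c₂ chE = true) (hu : checkUpF c₂ chE = true)
    (hz : checkLow c₂ chZ = true) {UV : List (ℕ × ℕ)} (hc : coverOk c.n c₂ chE chZ UV = true) {m M I z : ℕ}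
    (hm : chZ.size c₂.n = m) (hp : m.Prime) (hG : ch₀.size c.n = M * I) (hI : I.Coprime m)
    (hM : ch₀.rest.size c.n = M) (hs : chE.size c₂.n ≤ m * M) (hz' : z ∈ chZ.gens)
    {ch ch' chA chB : Chain} {cA cB : Cfg} {t t' W W' k k' : ℕ} {F F' : List ℕ}
    (hne : ch ≠ .nil) (hne' : ch' ≠ .nil) (a1 : checkLow c₂ ch = true) (a2 : cA.check = true)
    (a3 : checkLow cA chA = true) (a4 : checkUpF cA chA = true) (a5 : dcOk c c₂ cA ch₀ chE ch chA z t W k F = true)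
    (b1 : checkLow c₂ ch' = true) (b2 : cB.check = true) (b3 : checkLow cB chB = true) (b4 : checkUpF cB chB = true)
    (b5 : dcOk c c₂ cB ch₀ chE ch' chB z t' W' k' F' = true)
    (hcov : allLt (fun δ => bor (Nat.beq (tb ch₀.orb δ).toNat 0) (bor (Nat.beq δ ch₀.base)
      (bor (tb ch.orb δ) (tb ch'.orb δ)))) c.n = true) : LowB G m := by
  obtain ⟨hb, v, hR, tbl, hT⟩ := rest_grp X g₀ hne₀ hS₀ hl₀
  rw [top_inf_eq] at hR
  have hM' : Nat.card (stabilizer G (pt ch₀.base)) = M := by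
    rw [← hM, ← (g₀.rest hne₀).card X hK, top_inf_eq]
  have hI' : (stabilizer G (pt ch₀.base)).index = I := Nat.eq_of_mul_eq_mul_left (hM' ▸ Nat.card_pos : 0 < M) (by
    rw [← hG, ← g₀.card X hK, Subgroup.card_top, ← hM', Subgroup.card_mul_index])
  obtain ⟨E, _, _, Ω₂, _, pt₂, ξ, -, cv, gE, h1, h2, h3, h4, h5⟩ := exists_cv X hK v hc₂ hn hh hl hu hz hc hm
    (hR ▸ hM') hs
  rw [hR] at h1
  rw [← h4] at hp hI ⊢
  refine lowB_of_stable h2 (st_all h2 h1 fun g => ?_) (by rwa [h1, hI']) h3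
  obtain ⟨δ, h6, h7⟩ := hT g trivial
  have h8 := (allLt_iff _ _).1 hcov δ (tbl δ h6).1
  simp only [bor_eq_true, Nat.beq_eq, h6] at h8
  rw [h7]
  rcases h8 with h8 | h8 | h8 | h8
  · exact absurd h8 (by decide)
  · exact Or.inl (by rw [h8])
  · exact Or.inr (st_of_dc X hK cv g₀ gE hp (h5 z hz') hne a1 a2 a3 a4 a5 h8)
  · exact Or.inr (st_of_dc X hK cv g₀ gE hp (h5 z hz') hne' b1 b2 b3 b4 b5 h8)

end H60
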