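import Cfsg.Agent.Lib.Schur.Asm
import Cfsg.Agent.Lib.Schur.Perf
import Cfsg.Agent.Lib.AltCov.Mult

/-!
# Multipliers from subgroups that are full covering groups
-/

set_option autoImplicit false

namespace H60
open Cfsg Subgroup

/-- a subgroup of index prime to `p` that is a largest stem extension of a perfect group -/
theorem expB_of_sub {G Q : Type} [Group G] [Group Q] {p : ℕ} (M : Subgroup G) (hi : M.index.Coprime p)
    {ξ : M →* Q} (hξ : IsStemExtension ξ) (hQ : commutator Q = ⊤)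
    (h : ∀ (X : Type) [Group X] [Finite X] (τ : X →* Q), IsStemExtension τ → Nat.card τ.ker ≤ Nat.card ξ.ker) :
    ExpB G p 0 := by
  intro Γ _ _ σ hσ
  have hK : (M.comap σ).map σ = M := map_comap_eq_self_of_surjective hσ.1 M
  have hD : (⁅M.comap σ, M.comap σ⁆).map σ = M := by
    have := congrArg (map M.subtype) (perfect_of_stem hξ hQ)
    rwa [map_subtype_commutator, ← MonoidHom.range_eq_map, range_subtype, ← hK, ← map_commutator, hK] at this
  set D := ⁅M.comap σ, M.comap σ⁆ with hDe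
  let ρ : D →* M := (σ.comp D.subtype).codRestrict M fun d => hD ▸ mem_map_of_mem σ d.2
  have hρ : Function.Surjective ρ := fun m => by
    obtain ⟨d, hd, e⟩ : m.1 ∈ D.map σ := hD.symm ▸ m.2
    exact ⟨⟨d, hd⟩, Subtype.ext e⟩
  have hp : commutator D = ⊤ := by
    apply map_injective D.subtype_injective
    rw [map_subtype_commutator, ← MonoidHom.range_eq_map, range_subtype]
    refine le_antisymm (commutator_le.2 fun a ha b hb => D.mul_mem (D.mul_mem (D.mul_mem ha hb) (D.inv_mem ha)) (D.inv_mem hb)) ?_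
    have := commutator_comap_map_le σ hσ.2.1 D
    rwa [hD] at this
  have hτ : IsStemExtension (ξ.comp ρ) := by
    refine ⟨hξ.1.comp hρ, fun y hy => mem_center_iff.2 fun d => Subtype.ext ?_, hp ▸ le_top⟩
    refine (mem_centralizer_singleton_iff.1 (H72.AC.commutator_le_cent (fun k hk => hσ.2.1 ?_) d.2))
    rw [MonoidHom.mem_ker, map_commutatorElement, commutatorElement_eq_one_iff_mul_comm]
    exact congrArg Subtype.val (mem_center_iff.1 (hξ.2.1 hy) ⟨σ k, hk⟩)
  let κ : (ξ.comp ρ).ker →* ξ.ker := (ρ.comp (Subgroup.subtype _)).codRestrict _ fun d => d.2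
  have hκ : Function.Surjective κ := fun m => by
    obtain ⟨d, e⟩ := hρ m
    exact ⟨⟨d, show ξ (ρ d) = 1 from e ▸ m.2⟩, Subtype.ext e⟩
  have hinj := (hκ.bijective_of_nat_card_le (h _ _ hτ)).1
  refine (expMod_zero_iff σ p).2 fun z hz => ?_
  have h1 := pow_index_mem_of_stem hσ (M.comap σ) hz
  rw [hK] at h1
  have h2 : ρ ⟨_, h1⟩ = 1 := Subtype.ext (σ.ker.pow_mem hz _)
  have h3 : (⟨⟨_, h1⟩, show ξ (ρ _) = 1 by rw [h2, map_one]⟩ : (ξ.comp ρ).ker) = 1 :=
    hinj ((Subtype.ext h2).trans (map_one κ).symm)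
  obtain ⟨k, hk⟩ := exists_pow_eq_of_pow_coprime hi (congrArg (·.1.1) h3)
  exact ⟨_, σ.ker.pow_mem hz k, hk⟩

end H60
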